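import Cfsg.Agent.H6.Suz.Tab0

set_option autoImplicit false
set_option maxRecDepth 100000

namespace Cfsg.H6.Suz

theorem p0 : allR (ptU img) 0 768 = true := by decide +kernel

theorem p1 : allR (ptU img) 768 768 = true := by decide +kernel

theorem p2 : allR (ptU img) 1536 246 = true := by decide +kernel

theorem q0_0 : allR (ivl img Ws 1 417) 1 416 = true := by decide +kernel

theorem q1_0 : allR (ivl img Ws 417 1782) 417 1365 = true := by decide +kernel

end Cfsg.H6.Suz
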