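import Cfsg.Agent.H6.Suz.Pres
import Cfsg.Agent.H6.Suz.Chk0

set_option autoImplicit false
set_option maxRecDepth 100000

namespace Cfsg.H6.Suz

theorem ptOK : PtOK img 1782 LS EQS := ptOK_of_chk fun p h1 h2 => by
  rw [← ptU_eq]
  exact (range_join (allR_range p0 (by norm_num : 0 + 768 = 768)) (range_join (allR_range p1 (by norm_num : 768 + 768 = 1536)) (allR_range p2 (by norm_num : 1536 + 246 = 1782)))) p h1 h2

theorem hrep : repOK 8 506097522914230528 LS EQS D Suz.R = true := by decide +kernel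

theorem rep : Good (evR img 1782 8) 506097522914230528 ∧ Rels (evR img 1782 8) Suz.R ∧
    IsAct (MonoidHom.id _) (evR img 1782 8) img 1782 8 := rep_sound ptOK hrep

theorem iv0 {G : Type*} [Group G] {φ : G →* Equiv.Perm ℕ} {ev : ℕ → G} (h : IsAct φ ev img 1782 8) :
    orb φ (gen ev Ws) 1 = Set.Ico 1 417 :=
  ivl_sound h (by decide +kernel) (allR_range q0_0 (by norm_num : 1 + 416 = 417))

theorem iv1 {G : Type*} [Group G] {φ : G →* Equiv.Perm ℕ} {ev : ℕ → G} (h : IsAct φ ev img 1782 8) :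
    orb φ (gen ev Ws) 417 = Set.Ico 417 1782 :=
  ivl_sound h (by decide +kernel) (allR_range q1_0 (by norm_num : 417 + 1365 = 1782))


end Cfsg.H6.Suz
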